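import Cfsg.Agent.JankoOne.Classes
import Cfsg.Agent.JankoOne.DataCent

/-!
The centraliser of an involution in `J₁`.
-/

set_option autoImplicit false
set_option maxRecDepth 100000
set_option Elab.async false

namespace CfsgLib.JankoOne

open Cfsg.Spor

/-- An element of the centraliser. -/
def cM (n : ℕ) : M7 := at2 oneM Data.cent n

/-- The two generators. -/
def cG (s : ℕ) : ℕ := Data.centGen.getD s 0

/-- Right multiplication by a generator. -/
def cEdge (s : ℕ) : List (List ℕ) := bif Nat.beq s 0 then Data.centEdgeA else Data.centEdgeB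

/-- First coordinate. -/
def cSgn (n : ℕ) : ℕ := at2 0 Data.centSign n

/-- Second coordinate. -/
def cPerm (n t : ℕ) : ℕ := (Data.centPerm.getD n []).getD t 0

theorem cGen_ok : ((List.range 2).all fun s => okI (cG s)) = true := by decide +kernel

theorem cent_ok : ((List.range 120).all fun n => okM (cM n) &&
    beqM (mulM (cM n) (zM 0)) (mulM (zM 0) (cM n)) && (List.range 5).all fun t => Nat.blt (cPerm n t) 5) = true := by
  decide +kernel

theorem cEdge_ok : ((List.range 2).all fun s => (List.range 120).all fun i =>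
    let e := at2 0 (cEdge s) i
    Nat.blt e 120 && beqM (cM e) (mulM (cM i) (eM (cG s))) && Nat.beq (cSgn e) ((cSgn i + 1) % 2) &&
      (List.range 5).all fun t => Nat.beq (cPerm e t) (cPerm i (cPerm (at2 0 (cEdge s) 0) t))) = true := by
  decide +kernel

theorem cPar_ok : ((List.range 120).all fun n => Nat.beq n 0 ||
    (let e := at2 0 Data.centPar n
     Nat.blt (e / 2) n && Nat.beq (at2 0 (cEdge (e % 2)) (e / 2)) n)) = true := by decide +kernel

theorem cZero_ok : (beqM (cM 0) oneM && Nat.beq (cSgn 0) 0 &&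
    (List.range 5).all fun t => Nat.beq (cPerm 0 t) t) = true := by decide +kernel

theorem centSrt_ok : ((List.range 120).all fun n =>
    Nat.blt (at2 0 Data.centRank n) 120 && Nat.beq (at2 0 Data.centSrt (at2 0 Data.centRank n)) n &&
      (Nat.beq n 119 || Nat.blt (key (cM (at2 0 Data.centSrt n))) (key (cM (at2 0 Data.centSrt (n + 1)))))) =
    true := by decide +kernel

theorem cLab_ok : ((List.range 120).all fun n => Nat.beq n 0 ||
    !(Nat.beq (cSgn n % 2) 0 && (List.range 5).all fun t => Nat.beq (cPerm n t) t)) = true := by decide +kernel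

theorem okM_cM {n : ℕ} (hn : n < 120) : okM (cM n) = true := by
  have := chk cent_ok hn
  simp only [Bool.and_eq_true] at this
  exact this.1.1

/-- The centraliser. -/
noncomputable abbrev centInvol : Subgroup J1 := Subgroup.centralizer ({invol} : Set J1)

theorem cM_zero : cM 0 = oneM := by
  have := cZero_ok
  simp only [Bool.and_eq_true, beqM_iff] at this
  exact this.1.1

theorem exists_cent : ∀ n, n < 120 → ∃ x : centInvol, toMat x = mat (cM n) := by
  intro n
  induction n using Nat.strong_induction_on with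
  | _ n ih =>
    intro hn
    rcases Nat.eq_zero_or_pos n with rfl | hpos
    · exact ⟨1, by rw [cM_zero, mat_oneM]; rfl⟩
    · have h := chk cPar_ok hn
      simp only [Bool.or_eq_true, Bool.and_eq_true, Nat.beq_eq, Nat.blt_eq] at h
      obtain ⟨hlt, he⟩ := h.resolve_left (by omega)
      obtain ⟨x, hx⟩ := ih _ hlt (hlt.trans hn)
      have hs : at2 0 Data.centPar n % 2 < 2 := Nat.mod_lt _ (by norm_num)
      have hg := chk cGen_ok hs
      have hedge := chk (chk cEdge_ok hs) (hlt.trans hn)
      simp only [Bool.and_eq_true, beqM_iff] at hedge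
      have he2 := hedge.1.1.2
      rw [he] at he2
      have hy : toMat ((x : J1) * elI (cG (at2 0 Data.centPar n % 2))) = mat (cM n) := by
        rw [toMat_mul, hx, (elI_spec hg).2, ← mat_mulM (okM_cM (hlt.trans hn)) (elI_spec hg).1, he2]
      refine ⟨⟨_, Subgroup.mem_centralizer_singleton_iff.2 (toMat_inj ?_)⟩, hy⟩
      have hc := chk cent_ok hn
      simp only [Bool.and_eq_true, beqM_iff] at hc
      rw [toMat_mul, toMat_mul invol, hy, invol_spec.1, ← mat_mulM (okM_cM hn) (okM_zM (by norm_num)),
        ← mat_mulM (okM_zM (by norm_num)) (okM_cM hn), hc.1.2]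

/-- The element of the centraliser with index `n`. -/
noncomputable def cEl (n : Fin 120) : centInvol := (exists_cent n n.2).choose

theorem cEl_spec (n : Fin 120) : toMat (cEl n) = mat (cM n) := (exists_cent n n.2).choose_spec

theorem cEl_bijective : Function.Bijective cEl := by
  have hinj : Function.Injective cEl := fun i j h => Fin.ext
    (inj_of_sorted (f := fun n => key (cM n)) centSrt_ok i.2 j.2 (by
      rw [mat_inj (okM_cM i.2) (okM_cM j.2) ((cEl_spec i).symm.trans (h ▸ cEl_spec j))]))
  exact (Nat.bijective_iff_injective_and_card cEl).2 ⟨hinj, by rw [Nat.card_fin, card_centralizer_invol]⟩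

/-- The index. -/
noncomputable def cIdx : centInvol ≃ Fin 120 := (Equiv.ofBijective cEl cEl_bijective).symm

theorem cIdx_eq {x : centInvol} {n : ℕ} (hn : n < 120) (h : toMat x = mat (cM n)) : (cIdx x : ℕ) = n := by
  have : x = cEl ⟨n, hn⟩ := Subtype.ext (toMat_inj (h.trans (cEl_spec ⟨n, hn⟩).symm))
  rw [this, cIdx, Equiv.ofBijective_symm_apply_apply]

theorem cIdx_one : (cIdx 1 : ℕ) = 0 := cIdx_eq (by norm_num) (by rw [cM_zero, mat_oneM]; rfl)

theorem cEl_cIdx (x : centInvol) : cEl (cIdx x) = x := Equiv.ofBijective_apply_symm_apply _ _ _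

/-- The first coordinate of the label. -/
noncomputable def cS (x : centInvol) : Multiplicative (ZMod 2) := Multiplicative.ofAdd (cSgn (cIdx x) : ZMod 2)

/-- The second coordinate of the label. -/
noncomputable def cP (x : centInvol) : Fin 5 → Fin 5 := fun t => Fin.ofNat 5 (cPerm (cIdx x) t)

theorem cEdge_lt (s : Fin 2) : at2 0 (cEdge s) 0 < 120 := by
  have h := chk (chk cEdge_ok s.2) (show (0 : ℕ) < 120 by norm_num)
  simp only [Bool.and_eq_true, Nat.blt_eq] at h
  exact h.1.1.1

/-- A generator of the centraliser. -/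
noncomputable def cGen (s : Fin 2) : centInvol := cEl ⟨at2 0 (cEdge s) 0, cEdge_lt s⟩

theorem cIdx_gen (s : Fin 2) : (cIdx (cGen s) : ℕ) = at2 0 (cEdge s) 0 := cIdx_eq (cEdge_lt s) (cEl_spec _)

theorem label_mul_gen (x : centInvol) (s : Fin 2) :
    cS (x * cGen s) = cS x * cS (cGen s) ∧ cP (x * cGen s) = cP x ∘ cP (cGen s) := by
  have h0 := chk (chk cEdge_ok s.2) (show (0 : ℕ) < 120 by norm_num)
  have h := chk (chk cEdge_ok s.2) (cIdx x).2
  simp only [Bool.and_eq_true, beqM_iff, Nat.blt_eq, Nat.beq_eq, List.all_eq_true, List.mem_range] at h h0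
  obtain ⟨⟨⟨hlt, hm⟩, hsg⟩, hp⟩ := h
  obtain ⟨⟨⟨hlt0, hm0⟩, hsg0⟩, -⟩ := h0
  have hz := cZero_ok
  simp only [Bool.and_eq_true, Nat.beq_eq] at hz
  have hg := chk cGen_ok s.2
  have hgen : toMat (cGen s) = mat (eM (cG s)) := by
    rw [cGen, cEl_spec, hm0, cM_zero, mat_mulM okM_oneM (elI_spec hg).1, mat_oneM, one_mul]
  have hi : (cIdx (x * cGen s) : ℕ) = at2 0 (cEdge s) (cIdx x) := by
    refine cIdx_eq hlt ?_
    rw [hm, mat_mulM (okM_cM (cIdx x).2) (elI_spec hg).1, ← cEl_spec, cEl_cIdx, ← hgen]
    rfl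
  constructor
  · rw [cS, cS, cS, hi, cIdx_gen, hsg, hsg0, hz.1.2, ← ofAdd_add, ZMod.natCast_mod, ZMod.natCast_mod,
      Nat.cast_add, Nat.cast_add, Nat.cast_zero, zero_add]
  · funext t
    simp only [cP, Function.comp_apply, hi, cIdx_gen, hp t t.2]
    congr 2
    have hb := chk cent_ok (show at2 0 (cEdge s) 0 < 120 from hlt0)
    simp only [Bool.and_eq_true, List.all_eq_true, List.mem_range, Nat.blt_eq] at hb
    exact (Nat.mod_eq_of_lt (hb.2 t t.2)).symm

theorem label_one : cS 1 = 1 ∧ cP 1 = id := by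
  have hz := cZero_ok
  simp only [Bool.and_eq_true, Nat.beq_eq, List.all_eq_true, List.mem_range] at hz
  constructor
  · rw [cS, cIdx_one, hz.1.2, Nat.cast_zero, ofAdd_zero]
  · funext t
    rw [cP, cIdx_one, hz.2 t t.2]
    exact Fin.ext (Nat.mod_eq_of_lt t.2)

theorem cent_induction {Q : centInvol → Prop} (h1 : Q 1) (hm : ∀ y s, Q y → Q (y * cGen s)) (y : centInvol) :
    Q y := by
  suffices h : ∀ n, ∀ hn : n < 120, Q (cEl ⟨n, hn⟩) by
    rw [← cEl_cIdx y]
    exact h _ (cIdx y).2
  intro n
  induction n using Nat.strong_induction_on with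
  | _ n ih =>
    intro hn
    rcases Nat.eq_zero_or_pos n with rfl | hpos
    · convert h1
      exact Subtype.ext (toMat_inj (by rw [cEl_spec, cM_zero, mat_oneM]; rfl))
    · have h := chk cPar_ok hn
      simp only [Bool.or_eq_true, Bool.and_eq_true, Nat.beq_eq, Nat.blt_eq] at h
      obtain ⟨hlt, he⟩ := h.resolve_left (by omega)
      set s : Fin 2 := ⟨at2 0 Data.centPar n % 2, Nat.mod_lt _ (by norm_num)⟩
      have hedge := chk (chk cEdge_ok s.2) (hlt.trans hn)
      have h0 := chk (chk cEdge_ok s.2) (show (0 : ℕ) < 120 by norm_num)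
      simp only [Bool.and_eq_true, beqM_iff] at hedge h0
      have he2 := hedge.1.1.2
      rw [he] at he2
      have hg := chk cGen_ok s.2
      have heq : cEl ⟨n, hn⟩ = cEl ⟨_, hlt.trans hn⟩ * cGen s := by
        refine Subtype.ext (toMat_inj ?_)
        rw [cEl_spec, Subgroup.coe_mul, toMat_mul, cGen, cEl_spec, cEl_spec, h0.1.1.2, cM_zero,
          mat_mulM okM_oneM (elI_spec hg).1, mat_oneM, one_mul, ← mat_mulM (okM_cM (hlt.trans hn)) (elI_spec hg).1]
        exact congrArg mat he2
      rw [heq]
      exact hm _ s (ih _ hlt _)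

theorem label_mul (y : centInvol) : ∀ x, cS (x * y) = cS x * cS y ∧ cP (x * y) = cP x ∘ cP y := by
  refine cent_induction (Q := fun z => ∀ x, cS (x * z) = cS x * cS z ∧ cP (x * z) = cP x ∘ cP z) ?_ ?_ y
  · intro x
    rw [mul_one, label_one.1, label_one.2, mul_one, Function.comp_id]
    exact ⟨rfl, rfl⟩
  · intro z s ih x
    rw [← mul_assoc, (label_mul_gen (x * z) s).1, (label_mul_gen (x * z) s).2, (label_mul_gen z s).1,
      (label_mul_gen z s).2, (ih x).1, (ih x).2, mul_assoc]
    exact ⟨rfl, rfl⟩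

/-- The first coordinate, as a homomorphism. -/
noncomputable def cSHom : centInvol →* Multiplicative (ZMod 2) where
  toFun := cS
  map_one' := label_one.1
  map_mul' x y := (label_mul y x).1

/-- The second coordinate, as a homomorphism. -/
noncomputable def cPHom : centInvol →* Equiv.Perm (Fin 5) :=
  MonoidHom.toHomPerm
    { toFun := fun x => (cP x : Function.End (Fin 5))
      map_one' := label_one.2
      map_mul' := fun x y => (label_mul y x).2 }

theorem cPHom_apply (x : centInvol) (t : Fin 5) : cPHom x t = cP x t := rfl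

theorem cPHom_gen_zero : cPHom (cGen 0) =
    Equiv.swap 0 3 * Equiv.swap 3 1 * Equiv.swap 1 2 * Equiv.swap 2 4 := by
  ext t
  rw [cPHom_apply, cP, cIdx_gen]
  revert t
  decide +kernel

theorem cPHom_gen_one : cPHom (cGen 1) = Equiv.swap 0 3 * Equiv.swap 2 4 := by
  ext t
  rw [cPHom_apply, cP, cIdx_gen]
  revert t
  decide +kernel

theorem cPHom_even (x : centInvol) : cPHom x ∈ alternatingGroup (Fin 5) := by
  refine cent_induction (Q := fun y => cPHom y ∈ alternatingGroup (Fin 5)) ?_ ?_ x
  · rw [map_one]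
    exact one_mem _
  · intro y s ih
    rw [map_mul]
    refine mul_mem ih ?_
    fin_cases s
    · rw [show (⟨0, _⟩ : Fin 2) = 0 from rfl, cPHom_gen_zero, Equiv.Perm.mem_alternatingGroup]
      simp only [map_mul]
      decide +kernel
    · rw [show (⟨1, _⟩ : Fin 2) = 1 from rfl, cPHom_gen_one, Equiv.Perm.mem_alternatingGroup]
      simp only [map_mul]
      decide +kernel

/-- The centraliser of an involution. -/
theorem centralizer_invol_iso : Nonempty (centInvol ≃* Multiplicative (ZMod 2) × alternatingGroup (Fin 5)) := by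
  let f : centInvol →* Multiplicative (ZMod 2) × alternatingGroup (Fin 5) :=
    cSHom.prod (cPHom.codRestrict _ cPHom_even)
  have hinj : Function.Injective f := by
    rw [injective_iff_map_eq_one]
    intro x hx
    obtain ⟨hs, hp⟩ := Prod.ext_iff.1 hx
    have hs' : ((cSgn (cIdx x) : ℕ) : ZMod 2) = 0 := hs
    have hp' : ∀ t : Fin 5, (cPerm (cIdx x) t) % 5 = t := fun t =>
      congrArg Fin.val (Equiv.ext_iff.1 (congrArg Subtype.val hp) t)
    have h := chk cLab_ok (cIdx x).2
    have hc := chk cent_ok (cIdx x).2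
    simp only [Bool.or_eq_true, Bool.not_eq_true', Bool.and_eq_false_iff, Nat.beq_eq, Bool.and_eq_true,
      List.all_eq_true, List.mem_range, Nat.blt_eq] at h hc
    rcases h with h | h | h
    · rw [← cEl_cIdx x]
      exact Subtype.ext (toMat_inj (by rw [cEl_spec, h, cM_zero, mat_oneM]; rfl))
    · rw [ZMod.natCast_eq_zero_iff_even, Nat.even_iff] at hs'
      simp [hs'] at h
    · rw [List.all_eq_false] at h
      obtain ⟨t, ht, hne⟩ := h
      rw [List.mem_range] at ht
      have := hp' ⟨t, ht⟩
      rw [Nat.mod_eq_of_lt (hc.2 t ht)] at this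
      simp [this] at hne
  refine ⟨MulEquiv.ofBijective f ((Nat.bijective_iff_injective_and_card _).2 ⟨hinj, ?_⟩)⟩
  rw [card_centralizer_invol, Nat.card_prod, Nat.card_eq_fintype_card, Nat.card_eq_fintype_card,
    Fintype.card_multiplicative, ZMod.card]
  decide +kernel

end CfsgLib.JankoOne
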