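import Cfsg.Agent.JankoOne.Cent
import Cfsg.Agent.MathieuCover.Odd
import Cfsg.Agent.Schur.Basic
import Cfsg.Prelude.Def_KGroupFacts

/-!
The Schur multiplier of `J₁` is trivial.
-/

set_option autoImplicit false
set_option maxRecDepth 100000

namespace CfsgLib.JankoOne

open Cfsg.Spor CfsgLib.Schur CfsgLib.MathieuCover
open scoped commutatorElement

theorem alt_five_no_four : ∀ a : alternatingGroup (Fin 5), a ^ 4 = 1 → a ^ 2 = 1 := by decide +kernel

theorem zmod_two_sq : ∀ a : Multiplicative (ZMod 2), a ^ 2 = 1 := by decide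

/-- There is no element of order four. -/
theorem sq_eq_one_of_pow_four {y : J1} (h : y ^ 4 = 1) : y ^ 2 = 1 := by
  by_contra hne
  haveI : Fact (Nat.Prime 2) := ⟨Nat.prime_two⟩
  have ho : orderOf (y ^ 2) = 2 := orderOf_eq_prime (by rw [← pow_mul]; exact h) hne
  obtain ⟨g, hg⟩ := exists_conj_invol ho
  have hsq : (g * y * g⁻¹) ^ 2 = invol := by rw [conj_pow]; exact hg
  have hmem : g * y * g⁻¹ ∈ centInvol := by
    rw [Subgroup.mem_centralizer_singleton_iff, ← hsq, ← pow_succ', ← pow_succ]
  obtain ⟨f⟩ := centralizer_invol_iso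
  set x : centInvol := ⟨g * y * g⁻¹, hmem⟩
  have hx4 : x ^ 4 = 1 := Subtype.ext (by
    rw [Subgroup.coe_pow]
    show (g * y * g⁻¹) ^ 4 = 1
    rw [conj_pow, h, mul_one, mul_inv_cancel])
  have hf : f x ^ 2 = 1 := by
    refine Prod.ext (zmod_two_sq _) (alt_five_no_four _ ?_)
    have := congrArg Prod.snd (congrArg f hx4)
    rwa [map_pow, map_one, Prod.pow_snd, Prod.snd_one] at this
  have hx2 : x ^ 2 = 1 := f.injective (by rw [map_pow, hf, map_one])
  have := congrArg Subtype.val hx2
  rw [Subgroup.coe_pow] at this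
  exact invol_spec.2.2 (hsq.symm.trans this)

theorem sylow_two_exponent (T : Sylow 2 J1) {x : J1} (hx : x ∈ (T : Subgroup J1)) : x ^ 2 = 1 := by
  haveI : Fact (Nat.Prime 2) := ⟨Nat.prime_two⟩
  have hc : Nat.card (T : Subgroup J1) = 8 := by
    rw [Sylow.card_eq_multiplicity, card_J1, show (175560 : ℕ) = 2 ^ 3 * 21945 by norm_num,
      Nat.factorization_mul (by norm_num) (by norm_num), Finsupp.add_apply, Nat.prime_two.factorization_pow,
      Nat.factorization_eq_zero_of_not_dvd (by norm_num), Finsupp.single_eq_same]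
    norm_num
  have h8 : x ^ 8 = 1 := by
    have := pow_card_eq_one' (x := (⟨x, hx⟩ : (T : Subgroup J1)))
    rw [hc] at this
    exact congrArg Subtype.val this
  refine sq_eq_one_of_pow_four ?_
  have := sq_eq_one_of_pow_four (y := x ^ 2) (by rw [← pow_mul]; exact h8)
  rw [← pow_mul] at this
  exact this

theorem no_cover_two {Γ : Type*} [Group Γ] [Finite Γ] {σ : Γ →* J1} {e : Γ} (c : PrimeCover σ e 2)
    (he : e ∈ commutator Γ) : False := by
  classical
  haveI : Fact (Nat.Prime 2) := ⟨Nat.prime_two⟩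
  obtain ⟨T⟩ := (inferInstance : Nonempty (Sylow 2 J1))
  have hsq : ∀ x : Γ, x ∈ (T : Subgroup J1).comap σ → σ x * σ x = 1 := fun x hx => by
    rw [← sq]; exact sylow_two_exponent T hx
  obtain ⟨W0, hW0⟩ := c.surj invol
  have hε : W0 * W0 ∈ σ.ker := by rw [MonoidHom.mem_ker, map_mul, hW0]; exact invol_spec.2.1
  set ε := W0 * W0 with hεdef
  have hεsq : ε * ε = 1 := by rw [← sq]; exact c.pow_ker hε
  have key : ∀ x : Γ, x ∈ (T : Subgroup J1).comap σ → σ x ≠ 1 → x * x = ε := by
    intro x hx hne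
    obtain ⟨g, hg⟩ := exists_conj_invol (orderOf_eq_prime (by rw [sq]; exact hsq x hx) hne)
    obtain ⟨h, rfl⟩ := c.surj g
    obtain ⟨z, hz, hzx⟩ := c.exists_of_map_eq
      (show σ (h * x * h⁻¹) = σ W0 by rw [map_mul, map_mul, map_inv, hg, hW0])
    have h1 : x * x ∈ σ.ker := by rw [MonoidHom.mem_ker, map_mul]; exact hsq x hx
    calc x * x = h * (x * x) * h⁻¹ := (c.conj_ker h h1).symm
      _ = (h * x * h⁻¹) * (h * x * h⁻¹) := by group
      _ = W0 * (z * W0) * z := by rw [hzx]; group
      _ = ε * (z * z) := by rw [← c.comm W0 hz]; simp only [hεdef, mul_assoc]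
      _ = ε := by rw [← sq z, c.pow_ker hz, mul_one]
  have hP := c.mem_commutator he T
  by_cases hε1 : ε = 1
  · have hinv : ∀ x : Γ, x ∈ (T : Subgroup J1).comap σ → x * x = 1 := by
      intro x hx
      by_cases hk : σ x = 1
      · rw [← sq]; exact c.pow_ker hk
      · rw [key x hx hk, hε1]
    have hle : ⁅(T : Subgroup J1).comap σ, (T : Subgroup J1).comap σ⁆ ≤ ⊥ := by
      rw [Subgroup.commutator_le]
      intro x hx y hy
      rw [Subgroup.mem_bot, commutatorElement_eq_one_iff_mul_comm]
      have h1 := hinv _ (mul_mem hx hy)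
      calc x * y = (x * y)⁻¹ := eq_inv_of_mul_eq_one_left h1
        _ = y⁻¹ * x⁻¹ := mul_inv_rev x y
        _ = y * x := by rw [inv_eq_of_mul_eq_one_left (hinv x hx), inv_eq_of_mul_eq_one_left (hinv y hy)]
    have h1 := c.order
    rw [Subgroup.mem_bot.1 (hle hP), orderOf_one] at h1
    norm_num at h1
  · have anti : ∀ x y : Γ, x ∈ (T : Subgroup J1).comap σ → y ∈ (T : Subgroup J1).comap σ → σ x ≠ 1 →
        σ y ≠ 1 → σ (x * y) ≠ 1 → y * x = ε * (x * y) := by
      intro x y hx hy h1 h2 h3
      have e1 := key x hx h1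
      have e2 := key y hy h2
      have e3 := key (x * y) (mul_mem hx hy) h3
      have hxi : x⁻¹ = x * ε := inv_eq_of_mul_eq_one_right (by rw [← mul_assoc, e1, hεsq])
      have hyi : y⁻¹ = y * ε := inv_eq_of_mul_eq_one_right (by rw [← mul_assoc, e2, hεsq])
      calc y * x = x⁻¹ * (x * y * (x * y)) * y⁻¹ := by group
        _ = x * (ε * ε) * (y * ε) := by rw [e3, hxi, hyi]; simp only [mul_assoc]
        _ = x * y * ε := by rw [hεsq, mul_one, mul_assoc]
        _ = ε * (x * y) := c.comm _ hε
    have hc : Nat.card (T : Subgroup J1) = 8 := by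
      rw [Sylow.card_eq_multiplicity, card_J1, show (175560 : ℕ) = 2 ^ 3 * 21945 by norm_num,
        Nat.factorization_mul (by norm_num) (by norm_num), Finsupp.add_apply, Nat.prime_two.factorization_pow,
        Nat.factorization_eq_zero_of_not_dvd (by norm_num), Finsupp.single_eq_same]
      norm_num
    have hex : ∀ S : Finset J1, S.card < 8 → ∃ t ∈ (T : Subgroup J1), t ∉ S := by
      intro S hS
      by_contra hcon
      push Not at hcon
      have := Nat.card_le_card_of_injective (fun t : (T : Subgroup J1) => (⟨(t : J1), hcon t t.2⟩ : S))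
        fun a b h => Subtype.ext (congrArg (fun s : S => (s : J1)) h)
      rw [hc, Nat.card_eq_fintype_card, Fintype.card_coe] at this
      omega
    obtain ⟨u, hu, hu'⟩ := hex {1} (by simp)
    obtain ⟨v, hv, hv'⟩ := hex {1, u} (lt_of_le_of_lt Finset.card_le_two (by norm_num))
    obtain ⟨w, hw, hw'⟩ := hex {1, u, v, u * v} (lt_of_le_of_lt Finset.card_le_four (by norm_num))
    simp only [Finset.mem_insert, Finset.mem_singleton, not_or] at hu' hv' hw'
    obtain ⟨U, rfl⟩ := c.surj u
    obtain ⟨V, rfl⟩ := c.surj v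
    obtain ⟨W, rfl⟩ := c.surj w
    have hne : ∀ a b : Γ, a ∈ (T : Subgroup J1).comap σ → σ b ≠ σ a → σ (a * b) ≠ 1 := fun a b ha hab h => by
      rw [map_mul] at h
      exact hab ((mul_left_cancel (h.trans (hsq a ha).symm)))
    have a1 := anti U V hu hv hu' hv'.1 (hne U V hu hv'.2)
    have a2 := anti U W hu hw hu' hw'.1 (hne U W hu hw'.2.1)
    have a3 := anti V W hv hw hv'.1 hw'.1 (hne V W hv hw'.2.2.1)
    have a4 := anti (U * V) W (mul_mem hu hv) hw (hne U V hu hv'.2) hw'.1
      (hne (U * V) W (mul_mem hu hv) (by rw [map_mul]; exact hw'.2.2.2))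
    have a5 : W * (U * V) = U * V * W := by
      calc W * (U * V) = W * U * V := (mul_assoc _ _ _).symm
        _ = ε * U * (W * V) := by rw [a2]; simp only [mul_assoc]
        _ = ε * (U * ε) * (V * W) := by rw [a3]; simp only [mul_assoc]
        _ = ε * (ε * U) * (V * W) := by rw [c.comm U hε]
        _ = U * V * W := by rw [← mul_assoc ε ε U, hεsq, one_mul]; simp only [mul_assoc]
    rw [a5] at a4
    exact hε1 (right_eq_mul.1 a4 |> fun h => h)

theorem no_prime_cover (Δ : Type) [Group Δ] [Finite Δ] (τ : Δ →* J1) (e : Δ) (p : ℕ) (hp : p.Prime)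
    (hc : PrimeCover τ e p) (he : e ∈ commutator Δ) : False := by
  haveI := Fact.mk hp
  by_cases h2 : p = 2
  · subst h2
    exact no_cover_two hc he
  obtain ⟨T⟩ := (inferInstance : Nonempty (Sylow p J1))
  by_cases hd : p ∣ 175560
  · have hf : (Nat.card J1).factorization p = 1 := by
      rw [card_J1]
      have hsq : ¬ p ^ 2 ∣ 175560 := by
        have := prime_mem hp hd
        simp only [List.mem_cons, List.not_mem_nil, or_false] at this
        rcases this with rfl | rfl | rfl | rfl | rfl | rfl <;> first | exact absurd rfl h2 | norm_num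
      have ha := (hp.dvd_iff_one_le_factorization (by norm_num)).1 hd
      by_contra hne1
      exact hsq ((pow_dvd_pow p (show 2 ≤ (175560 : ℕ).factorization p by omega)).trans (Nat.ordProj_dvd _ _))
    have hcard : Nat.card (T : Subgroup J1) = p := by rw [Sylow.card_eq_multiplicity, hf, pow_one]
    obtain ⟨u, hu⟩ := (isCyclic_of_prime_card hcard).exists_generator
    exact no_cover_cyclic hc he T (u := (u : J1)) fun x hx => by
      obtain ⟨i, hi⟩ := hu ⟨x, hx⟩
      exact ⟨i, congrArg Subtype.val hi⟩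
  · refine no_cover_cyclic hc he T (u := 1) ?_
    have hcard : Nat.card (T : Subgroup J1) = 1 := by
      rw [Sylow.card_eq_multiplicity, card_J1, Nat.factorization_eq_zero_of_not_dvd hd, pow_zero]
    rw [Subgroup.card_eq_one.1 hcard]
    exact bot_le

theorem schur_J1 : Cfsg.HasCyclicSchurMultiplier J1 1 :=
  hasTrivial_of fun Γ _ _ _ hσ => ker_eq_bot_of_no_cover hσ fun Δ _ _ τ e p hp hc he =>
    no_prime_cover Δ τ e p hp hc he

end CfsgLib.JankoOne
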